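import Mathlib
import Cfsg.Agent.Lib.Helper70.HH.S3786Defs2
import Cfsg.Agent.Lib.Helper32.TBCore

/-!
# S3786: package (A2) LemCTB (helper62)

The central type bound for a not necessarily faithful representation: pass to the quotient by
the kernel of the representation, apply `LemDimAbsG` and `HH89.LemIndep` there, and pull the
bound back.
-/

set_option autoImplicit false

namespace Cfsg.Agent.Lib.Helper62.HH86

open Module Cfsg.Agent.Lib.Helper70.HH89 Cfsg.Agent.Lib.Helper70.HH86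

universe u v w

/-- `|S| = |ker f ∩ S| * |f(S)|`. -/
theorem card_eq_card_ker_inf_mul_card_map {G : Type*} [Group G] {G' : Type*} [Group G']
    (f : G →* G') (S : Subgroup G) :
    Nat.card S = Nat.card (f.ker ⊓ S : Subgroup G) * Nat.card (S.map f) := by
  have h := Subgroup.relIndex_mul_relIndex (⊥ : Subgroup G) (f.ker ⊓ S) S bot_le inf_le_right
  rw [Subgroup.relIndex_bot_left, Subgroup.relIndex_bot_left, Subgroup.inf_relIndex_right,
    Subgroup.relIndex_ker] at h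
  exact h.symm

/-- Package (A2). -/
theorem lemCTB (hD : LemDimAbsG.{u, v, w}) (hI : LemIndep.{u, v, w}) : LemCTB.{u, v, w} := by
  intro p q _ _ F _ _ _ Γ _ _ V _ _ _ _ ρ Q C hQn x k hqp hQ hgen hk hxk hirr hnz hcomm hcen hyc
    hyn hCQ hC
  obtain ⟨π, ρq, hπ, hρqinj, hρq⟩ := Cfsg.Agent.Lib.Helper32.exists_faithful_quot ρ
  have hQqn : (Q.map π).Normal := hQn.map _ hπ
  have hQq : IsPGroup q (Q.map π) := hQ.map _
  have hgenq : Q.map π ⊔ Subgroup.zpowers (π x) = ⊤ := by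
    rw [← MonoidHom.map_zpowers, ← Subgroup.map_sup, hgen, Subgroup.map_top_of_surjective _ hπ]
  -- the centre of the image of `Q`
  set Cb : Subgroup (Γ ⧸ MonoidHom.ker ρ) :=
    Q.map π ⊓ Subgroup.centralizer (Q.map π : Set (Γ ⧸ MonoidHom.ker ρ)) with hCb
  -- central elements of the image act by scalars
  have key1 : ∀ a ∈ Q, π a ∈ Subgroup.centralizer (Q.map π : Set (Γ ⧸ MonoidHom.ker ρ)) →
      ∃ s : F, ρ a = s • (1 : Module.End F V) := by
    intro a ha hc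
    apply hcen a ha
    intro b hb
    have h1 : π b * π a = π a * π b :=
      (Subgroup.mem_centralizer_iff.1 hc) (π b) ⟨b, hb, rfl⟩
    have h2 := congrArg ρq h1
    rw [← map_mul, ← map_mul, hρq, hρq] at h2
    exact h2.symm
  -- elements acting by scalars are central in the image
  have key2 : ∀ a : Γ, (∃ s : F, ρ a = s • (1 : Module.End F V)) →
      π a ∈ Subgroup.centralizer (Q.map π : Set (Γ ⧸ MonoidHom.ker ρ)) := by
    rintro a ⟨s, hs⟩
    rw [Subgroup.mem_centralizer_iff]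
    intro g _
    apply hρqinj
    rw [map_mul, map_mul, hρq, hs, smul_mul_assoc, one_mul, mul_smul_comm, mul_one]
  have hxkq : π x ^ p ^ k = 1 := by rw [← map_pow, hxk, map_one]
  have hirrq : ∀ U : Submodule F V, (∀ g : Γ ⧸ MonoidHom.ker ρ, U.map (ρq g) ≤ U) →
      U = ⊥ ∨ U = ⊤ := by
    intro U hU
    apply hirr U
    intro g
    rw [← hρq]
    exact hU (π g)
  have hnzq : (ρq (π x) - 1) ^ (p ^ k - 1) = 0 := by rw [hρq]; exact hnz
  have hCbQ : Cb ≤ Q.map π := inf_le_left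
  have hCbsc : ∀ c ∈ Cb, ∃ μ : F, ρq c = μ • (1 : Module.End F V) := by
    rintro c ⟨⟨a, ha, rfl⟩, hc⟩
    obtain ⟨s, hs⟩ := key1 a ha hc
    exact ⟨s, by rw [hρq]; exact hs⟩
  have hcommq : ∀ a ∈ Q.map π, ∀ b ∈ Q.map π, a * b * a⁻¹ * b⁻¹ ∈ Cb := by
    rintro _ ⟨a, ha, rfl⟩ _ ⟨b, hb, rfl⟩
    have hmem : a * b * a⁻¹ * b⁻¹ ∈ Q :=
      Q.mul_mem (Q.mul_mem (Q.mul_mem ha hb) (Q.inv_mem ha)) (Q.inv_mem hb)
    have h1 : π a * π b * (π a)⁻¹ * (π b)⁻¹ = π (a * b * a⁻¹ * b⁻¹) := by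
      rw [map_mul, map_mul, map_mul, map_inv, map_inv]
    rw [h1]
    exact ⟨⟨_, hmem, rfl⟩, key2 _ (hcomm a ha b hb)⟩
  have hcenq : ∀ a ∈ Q.map π, (∀ b ∈ Q.map π, a * b = b * a) → a ∈ Cb := by
    intro a ha hab
    exact ⟨ha, Subgroup.mem_centralizer_iff.2 (fun b hb => (hab b hb).symm)⟩
  have hycq : ∀ a ∈ Q.map π, π x ^ p ^ (k - 1) * a = a * π x ^ p ^ (k - 1) → a ∈ Cb := by
    rintro _ ⟨a, ha, rfl⟩ h
    have h1 := congrArg ρq h
    rw [← map_pow, ← map_mul, ← map_mul, hρq, hρq] at h1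
    exact ⟨⟨a, ha, rfl⟩, key2 a (hyc a ha h1)⟩
  have hynq : ∃ a ∈ Q.map π, π x ^ p ^ (k - 1) * a ≠ a * π x ^ p ^ (k - 1) := by
    obtain ⟨a, ha, hne⟩ := hyn
    refine ⟨π a, ⟨a, ha, rfl⟩, fun h => hne ?_⟩
    have h1 := congrArg ρq h
    rw [← map_pow, ← map_mul, ← map_mul, hρq, hρq] at h1
    exact h1
  -- the dimension bound and the central type bound in the faithful quotient
  have hdim : finrank F V + 1 ≤ p ^ k :=
    hD ρq (Q.map π) Cb (π x) k hqp hQq hρqinj hgenq hk hxkq hirrq hnzq hCbQ hCbsc hcommq hcenq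
      hycq hynq
  have hInd : Nat.card (Q.map π) ≤ finrank F V ^ 2 * Nat.card Cb :=
    hI ρq (Q.map π) Cb hCbQ (fun g _ hg => hρqinj (by rw [hg, map_one])) hCbsc hcommq hcenq
  -- pull back
  have hcQ := card_eq_card_ker_inf_mul_card_map π Q
  have hcC := card_eq_card_ker_inf_mul_card_map π C
  have hle1 : (π.ker ⊓ Q : Subgroup Γ) ≤ π.ker ⊓ C := by
    rintro a ⟨hak, haq⟩
    refine ⟨hak, hC a haq ⟨1, ?_⟩⟩
    have h1 : π a = 1 := hak
    rw [← hρq, h1, map_one, one_smul]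
  have hle2 : Cb ≤ C.map π := by
    rintro c ⟨⟨a, ha, rfl⟩, hc⟩
    exact ⟨a, hC a ha (key1 a ha hc), rfl⟩
  have hd : finrank F V ≤ p ^ k - 1 := by omega
  calc Nat.card Q = Nat.card (π.ker ⊓ Q : Subgroup Γ) * Nat.card (Q.map π) := hcQ
    _ ≤ Nat.card (π.ker ⊓ C : Subgroup Γ) * (finrank F V ^ 2 * Nat.card Cb) :=
        Nat.mul_le_mul (Subgroup.card_le_of_le hle1) hInd
    _ ≤ Nat.card (π.ker ⊓ C : Subgroup Γ) * ((p ^ k - 1) ^ 2 * Nat.card (C.map π)) :=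
        Nat.mul_le_mul le_rfl (Nat.mul_le_mul (Nat.pow_le_pow_left hd 2)
          (Subgroup.card_le_of_le hle2))
    _ = (p ^ k - 1) ^ 2 * Nat.card C := by rw [hcC]; ring

end Cfsg.Agent.Lib.Helper62.HH86
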