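import Mathlib
import Cfsg.Agent.Lib.Helper70.HH.S3786Defs2
import Cfsg.Agent.Lib.Helper32.TBHomog

/-!
# S3786: package (A4) LemQmCard (helper62)

`|[Q, y] Z(Q) : Z(Q)| ≤ (p ^ k - 1) ^ 2` in the abstract local configuration: restrict to a
minimal nonzero `⟨M, x⟩`-invariant subspace (`M = [Q, y] Z(Q)`) and apply the central type
bound `LemCTB` there.
-/

set_option autoImplicit false

namespace Cfsg.Agent.Lib.Helper62.HH86

open Module Cfsg.Agent.Lib.Helper70.HH89 Cfsg.Agent.Lib.Helper70.HH86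

universe u v w

/-- Conjugation by a power of `x` preserves an `x`-invariant subgroup. -/
theorem conj_pow_mem_of_conj_mem {Γ : Type*} [Group Γ] (M : Subgroup Γ) (x : Γ)
    (h : ∀ a ∈ M, x * a * x⁻¹ ∈ M) (j : ℕ) : ∀ a ∈ M, x ^ j * a * (x ^ j)⁻¹ ∈ M := by
  induction j with
  | zero => intro a ha; simpa using ha
  | succ j ih =>
    intro a ha
    have h1 := h _ (ih a ha)
    have h2 : x ^ (j + 1) * a * (x ^ (j + 1))⁻¹ = x * (x ^ j * a * (x ^ j)⁻¹) * x⁻¹ := by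
      rw [pow_succ']; group
    rw [h2]; exact h1

/-- Package (A4). -/
theorem lemQmCard (hQm : LemQm.{u, v, w}) (hC : LemCTB.{u, v, w}) : LemQmCard.{u, v, w} := by
  intro p q _ _ F _ _ _ Γ _ _ U _ _ _ _ ρ Q hQn x z k ctx
  obtain ⟨hMQ, hMfp, hMcen, hMx, -⟩ := hQm ρ Q x z k ctx
  have hpk : 2 ≤ p ^ k := by
    have hp2 : 2 ≤ p := (Fact.out : p.Prime).two_le
    calc 2 ≤ p := hp2
      _ = p ^ 1 := (pow_one p).symm
      _ ≤ p ^ k := Nat.pow_le_pow_right (by omega) ctx.hk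
  have hpos : 0 < (p ^ k - 1) ^ 2 := pow_pos (by omega) 2
  set y : Γ := x ^ p ^ (k - 1) with hy
  set M : Subgroup Γ := qm Q y with hM
  have hzM : zq Q ≤ M := le_sup_right
  by_cases hMz : M ≤ zq Q
  · have hMeq : M = zq Q := le_antisymm hMz hzM
    rw [hMeq]
    exact Nat.le_mul_of_pos_left _ hpos
  obtain ⟨a0, ha0M, ha0z⟩ := SetLike.not_le_iff_exists.1 hMz
  -- the group `Γ0 = ⟨M, x⟩` and a minimal invariant subspace
  set Γ0 : Subgroup Γ := M ⊔ Subgroup.zpowers x with hΓ0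
  have hMΓ0 : M ≤ Γ0 := le_sup_left
  have hxΓ0 : x ∈ Γ0 := Subgroup.mem_sup_right (Subgroup.mem_zpowers x)
  have hzΓ0 : zq Q ≤ Γ0 := hzM.trans hMΓ0
  have hnorm : ∀ g ∈ Γ0, ∀ a ∈ M, g * a * g⁻¹ ∈ M := by
    have h1 : Γ0 ≤ Subgroup.normalizer (M : Set Γ) := by
      apply sup_le Subgroup.le_normalizer
      rw [Subgroup.le_normalizer_iff]
      intro h hh a ha
      obtain ⟨n, rfl⟩ := mem_powers_iff_mem_zpowers.2 hh
      exact conj_pow_mem_of_conj_mem M x hMx n a ha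
    exact fun g hg a ha => (Subgroup.le_normalizer_iff.1 h1) g hg a ha
  obtain ⟨U0, hU0, hU0inv, hU0min⟩ := Cfsg.Agent.Lib.Helper32.exists_min_invariant ρ Γ0
  have hle : ∀ g : Γ0, U0 ≤ U0.comap ((ρ.comp Γ0.subtype) g) := by
    intro g w hw
    exact hU0inv g.1 g.2 (Submodule.mem_map_of_mem hw)
  let ρ' : Representation F Γ0 U0 :=
    Representation.subrepresentation (ρ.comp Γ0.subtype) U0 hle
  have hρ' : ∀ (g : Γ0) (w : U0), ((ρ' g w : U0) : U) = ρ g.1 (w : U) := fun _ _ => rfl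
  have : Nontrivial U0 := Submodule.nontrivial_iff_ne_bot.2 hU0
  have hirr' : ∀ W' : Submodule F U0, (∀ g : Γ0, W'.map (ρ' g) ≤ W') → W' = ⊥ ∨ W' = ⊤ := by
    intro W' hW'
    by_cases h0 : W' = ⊥
    · left; exact h0
    right
    have h1 : W'.map U0.subtype = U0 := by
      apply hU0min
      · intro hb
        apply h0
        rw [eq_bot_iff]
        intro w hw
        have h2 : (w : U) ∈ W'.map U0.subtype := ⟨w, hw, rfl⟩
        rw [hb, Submodule.mem_bot] at h2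
        rw [Submodule.mem_bot]; exact Subtype.ext h2
      · rintro a ha _ ⟨_, ⟨w, hw, rfl⟩, rfl⟩
        exact ⟨ρ' ⟨a, ha⟩ w, hW' ⟨a, ha⟩ ⟨w, hw, rfl⟩, rfl⟩
      · rintro _ ⟨w, _, rfl⟩
        exact w.2
    rw [eq_top_iff]
    intro w _
    have h2 : (w : U) ∈ W'.map U0.subtype := by rw [h1]; exact w.2
    obtain ⟨w', hw', hww⟩ := h2
    have h3 : w' = w := Subtype.ext hww
    rw [← h3]; exact hw'
  -- transfer lemmas between `ρ` and `ρ'`
  have hsc : ∀ (g : Γ0) (s : F), ρ g.1 = s • (1 : Module.End F U) →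
      ρ' g = s • (1 : Module.End F U0) := by
    intro g s hs
    apply LinearMap.ext
    intro w
    apply Subtype.ext
    rw [hρ', hs]
    rfl
  have htriv : ∀ g : Γ0, ρ' g = 1 → ∀ w ∈ U0, ρ g.1 w = w := by
    intro g hg w hw
    have h := hρ' g ⟨w, hw⟩
    rw [hg] at h
    exact h.symm
  obtain ⟨w0, hw0U, hw0⟩ := Submodule.exists_mem_ne_zero_of_ne_bot hU0
  have hz1 : ∀ c ∈ zq Q, (∀ w ∈ U0, ρ c w = w) → c = 1 := by
    intro c hc hcw
    obtain ⟨s, hs⟩ := ctx.hzsc c hc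
    have h1 := hcw w0 hw0U
    rw [hs, LinearMap.smul_apply, Module.End.one_apply] at h1
    have h2 : (s - 1) • w0 = 0 := by rw [sub_smul, one_smul, h1, sub_self]
    have h3 : s = 1 := by
      rcases smul_eq_zero.1 h2 with h | h
      · exact sub_eq_zero.1 h
      · exact absurd h hw0
    apply ctx.hinj
    rw [hs, h3, one_smul, map_one]
  have hcomm1 : ∀ g h : Γ0, ρ' (g * h) = ρ' (h * g) → ρ' (g * h * g⁻¹ * h⁻¹) = 1 := by
    intro g h heq
    have h1 : g * h * g⁻¹ * h⁻¹ = (g * h) * (h * g)⁻¹ := by group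
    rw [h1, map_mul, heq, ← map_mul, mul_inv_cancel, map_one]
  -- the data for `LemCTB`
  set Q' : Subgroup Γ0 := M.subgroupOf Γ0 with hQ'
  set C' : Subgroup Γ0 := (zq Q).subgroupOf Γ0 with hC'
  set x' : Γ0 := ⟨x, hxΓ0⟩ with hx'
  have hQ'n : Q'.Normal :=
    (Subgroup.normal_subgroupOf_iff hMΓ0).2 (fun h g hh hg => hnorm g hg h hh)
  have hQ'p : IsPGroup q Q' := (ctx.hQ.to_le hMQ).comap_subtype
  have hgen' : Q' ⊔ Subgroup.zpowers x' = ⊤ := by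
    apply Subgroup.map_injective Γ0.subtype_injective
    rw [Subgroup.map_sup, Subgroup.map_subgroupOf_eq_of_le hMΓ0, MonoidHom.map_zpowers,
      ← MonoidHom.range_eq_map, Subgroup.range_subtype]
    rfl
  have hxk' : x' ^ p ^ k = 1 := Subtype.ext ctx.hxk
  have hpow : ∀ (n : ℕ) (w : U0), ((((ρ' x' - 1) ^ n) w : U0) : U) = ((ρ x - 1) ^ n) (w : U) := by
    intro n
    induction n with
    | zero => intro w; rfl
    | succ n ih =>
      intro w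
      rw [pow_succ, Module.End.mul_apply, ih, pow_succ, Module.End.mul_apply]
      rfl
  have hnz' : (ρ' x' - 1) ^ (p ^ k - 1) = 0 := by
    apply LinearMap.ext
    intro w
    apply Subtype.ext
    rw [hpow, ctx.hnz]
    rfl
  -- elements of `Q'` central on `U0` lie in `Z(Q)`
  have hcenkey : ∀ a ∈ Q', (∀ b ∈ Q', ρ' (a * b) = ρ' (b * a)) → a.1 ∈ zq Q := by
    intro a ha hab
    apply hMcen a.1 ha
    intro b hb
    have hbQ' : (⟨b, hMΓ0 hb⟩ : Γ0) ∈ Q' := hb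
    have h1 := hcomm1 a ⟨b, hMΓ0 hb⟩ (hab _ hbQ')
    have h2 : a.1 * b * a.1⁻¹ * b⁻¹ = 1 :=
      hz1 _ (ctx.hcl2 a.1 (hMQ ha) b (hMQ hb)) (htriv _ h1)
    calc a.1 * b = a.1 * b * a.1⁻¹ * b⁻¹ * (b * a.1) := by group
      _ = b * a.1 := by rw [h2, one_mul]
  have hy' : ((x' ^ p ^ (k - 1) : Γ0) : Γ) = y := rfl
  have hykey : ∀ a ∈ Q', ρ' (x' ^ p ^ (k - 1) * a) = ρ' (a * x' ^ p ^ (k - 1)) →
      a.1 ∈ zq Q := by
    intro a ha hya
    have h1 := hcomm1 _ _ hya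
    -- `k0 = [y, a]` acts trivially on `U0`
    have hk0M : y * a.1 * y⁻¹ * a.1⁻¹ ∈ M :=
      Subgroup.mem_sup_left (Subgroup.subset_closure ⟨a.1, hMQ ha, rfl⟩)
    set k0 : Γ0 := x' ^ p ^ (k - 1) * a * (x' ^ p ^ (k - 1))⁻¹ * a⁻¹ with hk0
    have hk0v : (k0 : Γ) = y * a.1 * y⁻¹ * a.1⁻¹ := rfl
    have hk0Q' : k0 ∈ Q' := by
      show (k0 : Γ) ∈ M
      rw [hk0v]; exact hk0M
    have hk0inv : ρ' k0⁻¹ = 1 := by
      have h2 : ρ' k0 * ρ' k0⁻¹ = 1 := by rw [← map_mul, mul_inv_cancel, map_one]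
      rw [h1, one_mul] at h2
      exact h2
    have hk0z : (k0 : Γ) ∈ zq Q := by
      apply hcenkey k0 hk0Q'
      intro b _
      rw [map_mul ρ' k0 b, map_mul ρ' b k0, h1, one_mul, mul_one]
    apply hMfp a.1 ha
    rw [← hk0v]
    exact hk0z
  have hcomm' : ∀ a ∈ Q', ∀ b ∈ Q', ∃ s : F,
      ρ' (a * b * a⁻¹ * b⁻¹) = s • (1 : Module.End F U0) := by
    intro a ha b hb
    obtain ⟨s, hs⟩ := ctx.hzsc _ (ctx.hcl2 a.1 (hMQ ha) b.1 (hMQ hb))
    exact ⟨s, hsc _ s hs⟩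
  have hscal : ∀ a : Γ0, a.1 ∈ zq Q → ∃ s : F, ρ' a = s • (1 : Module.End F U0) := by
    intro a ha
    obtain ⟨s, hs⟩ := ctx.hzsc _ ha
    exact ⟨s, hsc _ s hs⟩
  have hcen' : ∀ a ∈ Q', (∀ b ∈ Q', ρ' (a * b) = ρ' (b * a)) →
      ∃ s : F, ρ' a = s • (1 : Module.End F U0) :=
    fun a ha hab => hscal a (hcenkey a ha hab)
  have hyc' : ∀ a ∈ Q', ρ' (x' ^ p ^ (k - 1) * a) = ρ' (a * x' ^ p ^ (k - 1)) →
      ∃ s : F, ρ' a = s • (1 : Module.End F U0) :=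
    fun a ha hya => hscal a (hykey a ha hya)
  have hyn' : ∃ a ∈ Q', ρ' (x' ^ p ^ (k - 1) * a) ≠ ρ' (a * x' ^ p ^ (k - 1)) := by
    refine ⟨⟨a0, hMΓ0 ha0M⟩, ha0M, fun h => ha0z ?_⟩
    exact hykey ⟨a0, hMΓ0 ha0M⟩ ha0M h
  have hC'Q' : C' ≤ Q' := fun g hg => hzM hg
  have hC'mem : ∀ a ∈ Q', (∃ s : F, ρ' a = s • (1 : Module.End F U0)) → a ∈ C' := by
    rintro a ha ⟨s, hs⟩
    show a.1 ∈ zq Q
    apply hcenkey a ha
    intro b _
    rw [map_mul, map_mul, hs, smul_mul_assoc, one_mul, mul_smul_comm, mul_one]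
  have hmain : Nat.card Q' ≤ (p ^ k - 1) ^ 2 * Nat.card C' :=
    hC ρ' Q' C' x' k ctx.hqp hQ'p hgen' ctx.hk hxk' hirr' hnz' hcomm' hcen' hyc' hyn' hC'Q'
      hC'mem
  have hcardQ : Nat.card Q' = Nat.card M :=
    Nat.card_congr (Subgroup.subgroupOfEquivOfLe hMΓ0).toEquiv
  have hcardC : Nat.card C' = Nat.card (zq Q) :=
    Nat.card_congr (Subgroup.subgroupOfEquivOfLe hzΓ0).toEquiv
  rw [← hcardQ, ← hcardC]
  exact hmain

end Cfsg.Agent.Lib.Helper62.HH86
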