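import Mathlib
import Cfsg.Agent.Lib.Helper70.HH.S3789Defs

/-!
# S3789, package (P5) `LemIndep` (helper62)

Central type: if `Q` acts faithfully on `V`, `C ≤ Q` acts by scalars, `[Q, Q] ≤ C` and
`Z(Q) ≤ C`, then `|Q : C| ≤ (dim V)^2`: coset representatives of `C` in `Q` are linearly
independent in `End V` (Dedekind's lemma on characters).
-/

set_option autoImplicit false

namespace Cfsg.Agent.Lib.Helper62.HH89

open Module

universe u v w

/-- Scalars are determined by their action on a unit of `End V`. -/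
theorem smul_unit_inj {F : Type w} [Field F] {V : Type v} [AddCommGroup V] [Module F V]
    [Nontrivial V] {U : Module.End F V} (hU : IsUnit U) {a b : F} (h : a • U = b • U) :
    a = b := by
  obtain ⟨u, rfl⟩ := hU
  have h2 : (a • (u : Module.End F V)) * ((u⁻¹ : (Module.End F V)ˣ) : Module.End F V)
      = (b • (u : Module.End F V)) * ((u⁻¹ : (Module.End F V)ˣ) : Module.End F V) := by
    rw [h]
  rw [smul_mul_assoc, smul_mul_assoc, Units.mul_inv] at h2
  by_contra hab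
  have h3 : (a - b) • (1 : Module.End F V) = 0 := by rw [sub_smul, h2, sub_self]
  rcases smul_eq_zero.mp h3 with h4 | h4
  · exact hab (sub_eq_zero.mp h4)
  · exact one_ne_zero h4

theorem rho_isUnit {F : Type w} [Field F] {G : Type u} [Group G] {V : Type v} [AddCommGroup V]
    [Module F V] (ρ : Representation F G V) (g : G) : IsUnit (ρ g) :=
  IsUnit.map ρ (Group.isUnit g)

theorem lemIndep : Cfsg.Agent.Lib.Helper70.HH89.LemIndep.{u, v, w} := by
  intro F _ G _ _ V _ _ _ _ ρ Q C hCQ hfaith hscal hcomm hcent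
  classical
  -- the commutation scalar
  have hex : ∀ h t : ↥Q, ∃ μ : F, ρ (h : G) * ρ (t : G) = μ • (ρ (t : G) * ρ (h : G)) := by
    intro h t
    obtain ⟨μ, hμ⟩ := hscal _ (hcomm h h.2 t t.2)
    refine ⟨μ, ?_⟩
    have e : (h : G) * (t : G) = ((h : G) * t * (h : G)⁻¹ * (t : G)⁻¹) * ((t : G) * h) := by group
    rw [← map_mul, e, map_mul, hμ, smul_mul_assoc, one_mul, map_mul]
  choose κ hκ using hex
  have hκone : ∀ t : ↥Q, κ 1 t = 1 := by
    intro t
    have h1 := hκ 1 t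
    have hU : IsUnit (ρ (t : G) * ρ ((1 : ↥Q) : G)) := (rho_isUnit ρ _).mul (rho_isUnit ρ _)
    apply smul_unit_inj hU
    rw [← h1, one_smul]
    simp
  have hκmul : ∀ (h h' t : ↥Q), κ (h * h') t = κ h t * κ h' t := by
    intro h h' t
    have hU : IsUnit (ρ (t : G) * ρ ((h * h' : ↥Q) : G)) :=
      (rho_isUnit ρ _).mul (rho_isUnit ρ _)
    apply smul_unit_inj hU
    rw [← hκ (h * h') t]
    have e1 : ρ ((h * h' : ↥Q) : G) = ρ (h : G) * ρ (h' : G) := by
      rw [Subgroup.coe_mul, map_mul]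
    rw [e1, mul_assoc, hκ h' t, mul_smul_comm, ← mul_assoc, hκ h t, smul_mul_assoc, smul_smul,
      mul_assoc, mul_comm (κ h' t)]
  -- the characters
  let lam : ↥Q → (↥Q →* F) := fun t =>
    { toFun := fun h => κ h t
      map_one' := hκone t
      map_mul' := fun h h' => hκmul h h' t }
  have hlam : ∀ t h : ↥Q, lam t h = κ h t := fun _ _ => rfl
  -- equal characters ⇒ same coset
  have hinj : ∀ t s : ↥Q, lam t = lam s → (s : G)⁻¹ * (t : G) ∈ C := by
    intro t s hts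
    apply hcent _ (Q.mul_mem (Q.inv_mem s.2) t.2)
    intro b hb
    -- use h = b⁻¹
    have hbi : (b⁻¹ : G) ∈ Q := Q.inv_mem hb
    have hk : κ ⟨b⁻¹, hbi⟩ t = κ ⟨b⁻¹, hbi⟩ s := by
      have := congrArg (fun f : ↥Q →* F => f ⟨b⁻¹, hbi⟩) hts
      simpa [hlam] using this
    have h1 := hκ ⟨b⁻¹, hbi⟩ t
    have h2 := hκ ⟨b⁻¹, hbi⟩ s
    simp only at h1 h2
    rw [hk] at h1
    -- ρ(b⁻¹ t) (ρ (t b⁻¹))⁻¹ = κ = ρ(b⁻¹ s) ρ(s b⁻¹)⁻¹
    have h3 : ρ ((b⁻¹ * (t : G)) * ((t : G) * b⁻¹)⁻¹) = ρ ((b⁻¹ * (s : G)) * ((s : G) * b⁻¹)⁻¹) := by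
      have ht' : ρ ((b⁻¹ * (t : G)) * ((t : G) * b⁻¹)⁻¹)
          = κ ⟨b⁻¹, hbi⟩ s • (1 : Module.End F V) := by
        rw [map_mul, map_mul, h1, smul_mul_assoc, ← map_mul, ← map_mul, mul_inv_cancel, map_one]
      have hs' : ρ ((b⁻¹ * (s : G)) * ((s : G) * b⁻¹)⁻¹)
          = κ ⟨b⁻¹, hbi⟩ s • (1 : Module.End F V) := by
        rw [map_mul, map_mul, h2, smul_mul_assoc, ← map_mul, ← map_mul, mul_inv_cancel, map_one]
      rw [ht', hs']
    have h4 : ρ (((b⁻¹ * (t : G)) * ((t : G) * b⁻¹)⁻¹) * ((b⁻¹ * (s : G)) * ((s : G) * b⁻¹)⁻¹)⁻¹)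
        = 1 := by
      rw [map_mul, h3, ← map_mul, mul_inv_cancel, map_one]
    have h5 := hfaith _ (Q.mul_mem (Q.mul_mem (Q.mul_mem hbi t.2)
      (Q.inv_mem (Q.mul_mem t.2 hbi))) (Q.inv_mem (Q.mul_mem (Q.mul_mem hbi s.2)
      (Q.inv_mem (Q.mul_mem s.2 hbi))))) h4
    -- group computation
    have h6 : (b⁻¹ * (t : G)) * ((t : G) * b⁻¹)⁻¹ = (b⁻¹ * (s : G)) * ((s : G) * b⁻¹)⁻¹ :=
      mul_inv_eq_one.mp h5
    have h7 : (t : G) * b * (t : G)⁻¹ = (s : G) * b * (s : G)⁻¹ := by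
      calc (t : G) * b * (t : G)⁻¹ = b * ((b⁻¹ * (t : G)) * ((t : G) * b⁻¹)⁻¹) := by group
        _ = b * ((b⁻¹ * (s : G)) * ((s : G) * b⁻¹)⁻¹) := by rw [h6]
        _ = (s : G) * b * (s : G)⁻¹ := by group
    calc (s : G)⁻¹ * (t : G) * b = (s : G)⁻¹ * ((t : G) * b * (t : G)⁻¹) * (t : G) := by group
      _ = (s : G)⁻¹ * ((s : G) * b * (s : G)⁻¹) * (t : G) := by rw [h7]
      _ = b * ((s : G)⁻¹ * (t : G)) := by group
  -- representatives
  let C' : Subgroup ↥Q := C.subgroupOf Q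
  let rep : (↥Q ⧸ C') → ↥Q := fun x => Quotient.out x
  have hrep : Function.Injective (fun x : ↥Q ⧸ C' => lam (rep x)) := by
    intro x y hxy
    have h := hinj (rep x) (rep y) hxy
    have h2 : (rep y)⁻¹ * (rep x) ∈ C' := by
      rw [Subgroup.mem_subgroupOf, Subgroup.coe_mul, Subgroup.coe_inv]
      exact h
    have h3 : ((rep y : ↥Q) : ↥Q ⧸ C') = ((rep x : ↥Q) : ↥Q ⧸ C') := QuotientGroup.eq.mpr h2
    have hx : ((rep x : ↥Q) : ↥Q ⧸ C') = x := Quotient.out_eq' x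
    have hy : ((rep y : ↥Q) : ↥Q ⧸ C') = y := Quotient.out_eq' y
    rw [← hx, ← hy, h3]
  have hLI0 : LinearIndependent F (fun x : ↥Q ⧸ C' => ((lam (rep x) : ↥Q →* F) : ↥Q → F)) :=
    (linearIndependent_monoidHom ↥Q F).comp _ hrep
  let _ : Fintype (↥Q ⧸ C') := Fintype.ofFinite _
  -- linear independence of the operators
  have hLI : LinearIndependent F (fun x : ↥Q ⧸ C' => ρ ((rep x : ↥Q) : G)) := by
    rw [Fintype.linearIndependent_iff]
    intro g hg i
    by_contra hgi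
    -- conjugated relation
    have hrel : ∀ h : ↥Q, ∑ x : ↥Q ⧸ C', (g x * κ h (rep x)) • ρ ((rep x : ↥Q) : G) = 0 := by
      intro h
      have hU := rho_isUnit ρ (h : G)
      have e : (∑ x : ↥Q ⧸ C', (g x * κ h (rep x)) • ρ ((rep x : ↥Q) : G)) * ρ (h : G)
          = ρ (h : G) * ∑ x : ↥Q ⧸ C', g x • ρ ((rep x : ↥Q) : G) := by
        rw [Finset.sum_mul, Finset.mul_sum]
        refine Finset.sum_congr rfl (fun x _ => ?_)
        rw [mul_smul_comm, hκ h (rep x), smul_smul, smul_mul_assoc]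
      rw [hg, mul_zero] at e
      exact (hU.mul_left_eq_zero).mp e
    -- ρ (rep i) ≠ 0: find v, φ
    have hne : ρ ((rep i : ↥Q) : G) ≠ 0 := (rho_isUnit ρ _).ne_zero
    obtain ⟨v, hv⟩ : ∃ v : V, ρ ((rep i : ↥Q) : G) v ≠ 0 := by
      by_contra hcon
      exact hne (LinearMap.ext (fun v => not_not.mp (fun h => hcon ⟨v, h⟩)))
    obtain ⟨φ, hφ⟩ := Module.Projective.exists_dual_ne_zero F hv
    have hfun : ∑ x : ↥Q ⧸ C', (g x * φ (ρ ((rep x : ↥Q) : G) v)) •
        ((lam (rep x) : ↥Q →* F) : ↥Q → F) = 0 := by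
      funext h
      have h1 := congrArg (fun T : Module.End F V => φ (T v)) (hrel h)
      simp only [LinearMap.sum_apply, LinearMap.smul_apply, map_sum, map_smul, smul_eq_mul,
        LinearMap.zero_apply, map_zero] at h1
      simp only [Finset.sum_apply, Pi.smul_apply, smul_eq_mul, Pi.zero_apply, hlam]
      rw [← h1]
      refine Finset.sum_congr rfl (fun x _ => ?_)
      ring
    have h0 := (Fintype.linearIndependent_iff.mp hLI0) _ hfun i
    rcases mul_eq_zero.mp h0 with h0 | h0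
    · exact hgi h0
    · exact hφ h0
  have hcard : Fintype.card (↥Q ⧸ C') ≤ finrank F (Module.End F V) :=
    hLI.fintype_card_le_finrank
  have hfr : finrank F (Module.End F V) = finrank F V ^ 2 := by
    show finrank F (V →ₗ[F] V) = finrank F V ^ 2
    rw [Module.finrank_linearMap, sq]
  have hQ : Nat.card ↥Q = Nat.card (↥Q ⧸ C') * Nat.card ↥C' :=
    Subgroup.card_eq_card_quotient_mul_card_subgroup C'
  have hC' : Nat.card ↥C' = Nat.card ↥C :=
    Nat.card_congr (Subgroup.subgroupOfEquivOfLe hCQ).toEquiv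
  rw [hQ, hC', Nat.card_eq_fintype_card]
  exact Nat.mul_le_mul_right _ (hcard.trans hfr.le)

end Cfsg.Agent.Lib.Helper62.HH89
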